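import Cfsg.Agent.H46.CharTwoList
import Cfsg.Agent.H798.PSLDih
import Cfsg.Agent.SmallSimple.S1000.PSLFacts
import Cfsg.Agent.EvenType.CTwoCard

/-!
# The Sylow 2-subgroups of the small groups of characteristic 2 type (helper44)

`Nat.card S ≤ 2 ^ 10` or `S` dihedral.
-/

set_option autoImplicit false

namespace Cfsg.Agent.H44.CtSmall

open Subgroup Cfsg Cfsg.Agent.H46

universe u

theorem card_le_of {L : Type*} [Group L] [Finite L] (S : Sylow 2 L) {n k : ℕ} (hn : Nat.card L = n)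
    (h : ¬ 2 ^ (k + 1) ∣ n) : Nat.card ↥(S : Subgroup L) ≤ 2 ^ k := by
  have : Fact (Nat.Prime 2) := ⟨Nat.prime_two⟩
  obtain ⟨j, hj⟩ := IsPGroup.iff_card.1 S.isPGroup'
  rw [hj]
  apply Nat.pow_le_pow_right (by norm_num)
  by_contra hlt
  push Not at hlt
  apply h
  calc 2 ^ (k + 1) ∣ 2 ^ j := pow_dvd_pow 2 hlt
    _ = Nat.card ↥(S : Subgroup L) := hj.symm
    _ ∣ Nat.card L := Subgroup.card_subgroup_dvd_card _
    _ = n := hn

theorem card_psu34 {F : Type*} [Field F] [Fintype F] (hF : Fintype.card F = 16) : Nat.card (Cfsg.PSU 3 F 4) = 62400 := by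
  have h := Cfsg.Agent.S0280.result (F := F) (q := 4) hF 3 (by norm_num)
  norm_num [Finset.prod_range_succ, Nat.even_iff] at h
  omega

theorem psl_two {F : Type} [Field F] [Fintype F] (ho : Odd (Fintype.card F))
    (S : Sylow 2 (Matrix.ProjectiveSpecialLinearGroup (Fin 2) F)) :
    (∃ m, Nonempty (↥(S : Subgroup (Matrix.ProjectiveSpecialLinearGroup (Fin 2) F)) ≃* DihedralGroup m)) ∨
      Nat.card ↥(S : Subgroup (Matrix.ProjectiveSpecialLinearGroup (Fin 2) F)) ≤ 2 ^ 10 := by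
  have hfin : Finite (Matrix.ProjectiveSpecialLinearGroup (Fin 2) F) := Quotient.finite _
  by_cases h16 : 16 ∣ Fintype.card F ^ 2 - 1
  · obtain ⟨k, -, h⟩ := H798.psl_two_dihedral (Nat.odd_iff.1 ho) h16 S
    exact Or.inl ⟨_, h⟩
  · right
    refine card_le_of S rfl fun h => h16 ?_
    have h1 := SmallSimple.PSLTwoPart.card_psl_two_odd (F := F) ho
    have h2 : 2 ^ 4 ∣ Fintype.card F * (Fintype.card F ^ 2 - 1) := by
      rw [← h1]
      exact (Dvd.dvd.trans (by norm_num) h).mul_left 2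
    exact (Nat.Coprime.pow_left 4 (Nat.coprime_two_left.2 ho)).dvd_of_dvd_mul_left h2

/-- (a) the groups of 2-rank 2 -/
theorem small {L : Type u} [Group L] [Finite L] (h : CharTwoSmall L) (S : Sylow 2 L) :
    (∃ m, Nonempty (↥(S : Subgroup L) ≃* DihedralGroup m)) ∨ Nat.card ↥(S : Subgroup L) ≤ 2 ^ 10 := by
  rcases h with h | h | h | h | h
  · obtain ⟨F, _, _, ho, -, ⟨e⟩⟩ := h
    have : Fact (Nat.Prime 2) := ⟨Nat.prime_two⟩
    have hfin : Finite (Matrix.ProjectiveSpecialLinearGroup (Fin 2) F) := Quotient.finite _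
    let T : Sylow 2 (Matrix.ProjectiveSpecialLinearGroup (Fin 2) F) := default
    have hT : (T : Subgroup (Matrix.ProjectiveSpecialLinearGroup (Fin 2) F)).map e.symm.toMonoidHom ≤ ⊤ := le_top
    let T' : Sylow 2 L := T.mapSurjective (f := e.symm.toMonoidHom) e.symm.surjective
    have hT' : (T' : Subgroup L) = (T : Subgroup _).map e.symm.toMonoidHom := rfl
    have e1 : ↥(S : Subgroup L) ≃* ↥(T : Subgroup (Matrix.ProjectiveSpecialLinearGroup (Fin 2) F)) :=
      (S.equiv T').trans (((T : Subgroup _).equivMapOfInjective e.symm.toMonoidHom e.symm.injective).symm)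
    rcases psl_two ho T with ⟨m, ⟨f⟩⟩ | h1
    · exact Or.inl ⟨m, ⟨e1.trans f⟩⟩
    · right
      rw [Nat.card_congr e1.toEquiv]
      exact h1
  · obtain ⟨F, _, _, hF, ⟨e⟩⟩ := h
    exact Or.inr (card_le_of S ((Nat.card_congr e.toEquiv).trans
      (SmallSimple.PSLFacts.card_psl_three_three hF)) (by norm_num))
  · obtain ⟨F, _, _, hF, ⟨e⟩⟩ := h
    exact Or.inr (card_le_of S ((Nat.card_congr e.toEquiv).trans
      (SmallSimple.PSLFacts.card_psu_three_three hF)) (by norm_num))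
  · obtain ⟨F, _, _, hF, ⟨e⟩⟩ := h
    exact Or.inr (card_le_of S ((Nat.card_congr e.toEquiv).trans (card_psu34 hF)) (by norm_num))
  · exact Or.inr (card_le_of S h.2 (by norm_num))

/-- (b) `A₆` -/
theorem alt_six {L : Type*} [Group L] [Finite L] (h : Nonempty (L ≃* ↥(alternatingGroup (Fin 6)))) (S : Sylow 2 L) :
    Nat.card ↥(S : Subgroup L) ≤ 2 ^ 10 := by
  obtain ⟨e⟩ := h
  refine card_le_of S (n := 360) ?_ (by norm_num)
  rw [Nat.card_congr e.toEquiv, nat_card_alternatingGroup, Nat.card_fin]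
  decide

/-- (c) `M₂₂` -/
theorem m22 {L : Type*} [Group L] [Finite L] (h : Spor.IsoM22 L) (S : Sylow 2 L) :
    Nat.card ↥(S : Subgroup L) ≤ 2 ^ 10 := card_le_of S (EvenType.CTwoCard.m22 h) (by norm_num)

/-- (c) `M₂₃` -/
theorem m23 {L : Type*} [Group L] [Finite L] (h : Spor.IsoM23 L) (S : Sylow 2 L) :
    Nat.card ↥(S : Subgroup L) ≤ 2 ^ 10 := card_le_of S (EvenType.CTwoCard.m23 h) (by norm_num)

end Cfsg.Agent.H44.CtSmall
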